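import Cfsg.Agent.Lib.SteinbergPres.KernelAll

/-! An invertible Cartan matrix forces the centre of Steinberg's group to be trivial. -/

set_option autoImplicit false

namespace CfsgLib.SteinbergPres

open Cfsg.Lie CfsgLib.Chevalley

/-- `M` inverts the Cartan matrix -/
def invCartB (D : ChevalleyDatum) (M : List (List ℤ)) : Bool :=
  (List.range D.rank).all fun k => (List.range D.rank).all fun i =>
    CfsgLib.Twisted.intEqb
      (((List.range D.rank).map fun j => D.cartan k (D.simple j) * ((M.getD j []).getD i 0)).sum)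
      (if k = i then 1 else 0)

variable {D : ChevalleyDatum} {A : Aux} (h : Full D A) {K : Type*} [Field K]

include h in
theorem center_eq_bot {M : List (List ℤ)} (hM : invCartB D M = true) :
    Subgroup.center (D.SteinbergGroup K) = ⊥ := by
  obtain ⟨σ, η, cart, coro, par, dep, w0, C, hE⟩ := hasStCert_of_mem h.mem K
  rw [eq_bot_iff]
  intro g hg
  have hg1 := C.center_le_ker h hE hg
  obtain ⟨c, rfl⟩ := C.exists_torPhi h hE (C.ker_le_tor h hE hg1)
  rw [C.theta_torPhi] at hg1
  have hchi : ∀ j : Fin D.rank, chi D (D.simple j) c = 1 := by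
    intro j
    have hp := h.cert.wf.simple_lt j j.isLt
    have := congrArg (fun x : GL D.Idx K => (x : Matrix D.Idx D.Idx K) (Sum.inr ⟨_, hp⟩) (Sum.inr ⟨_, hp⟩)) hg1
    simp only [coe_torusHom, Matrix.diagonal_apply_eq, Units.val_one, Matrix.one_apply_eq, Sum.elim_inr] at this
    exact Units.ext this
  have hc : c = 1 := by
    funext i
    simp only [invCartB, List.all_eq_true, List.mem_range] at hM
    have key : ∀ k : Fin D.rank,
        c k ^ (∑ j : Fin D.rank, D.cartan k (D.simple j) * (M.getD j []).getD i 0) = c k ^ (if k = i then (1 : ℤ) else 0) := by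
      intro k
      have e := CfsgLib.Twisted.intEqb_eq (hM k k.isLt i i.isLt)
      rw [← List.sum_toFinset _ List.nodup_range, List.toFinset_range, Finset.sum_range] at e
      rw [e]
      congr 1
      simp [Fin.val_inj]
    have e1 : (∏ j : Fin D.rank, chi D (D.simple j) c ^ (M.getD j []).getD i 0) =
        ∏ k : Fin D.rank, c k ^ (∑ j : Fin D.rank, D.cartan k (D.simple j) * (M.getD j []).getD i 0) := by
      have hz : ∀ (x : Kˣ) (f : Fin D.rank → ℤ) (s : Finset (Fin D.rank)),
          x ^ (∑ j ∈ s, f j) = ∏ j ∈ s, x ^ f j := by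
        intro x f s
        induction s using Finset.induction_on with
        | empty => simp
        | insert a s ha ih => rw [Finset.sum_insert ha, Finset.prod_insert ha, zpow_add, ih]
      have hd : ∀ (x : Fin D.rank → Kˣ) (n : ℤ), (∏ k : Fin D.rank, x k) ^ n = ∏ k : Fin D.rank, x k ^ n :=
        fun x n => map_prod (zpowGroupHom n) x Finset.univ
      rw [Finset.prod_congr rfl fun k _ => hz (c k) _ _, Finset.prod_comm]
      refine Finset.prod_congr rfl fun j _ => ?_
      show (∏ k : Fin D.rank, c k ^ D.cartan k (D.simple j)) ^ _ = _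
      rw [hd]
      exact Finset.prod_congr rfl fun k _ => (zpow_mul _ _ _).symm
    simp only [hchi, one_zpow, Finset.prod_const_one, key] at e1
    rw [Finset.prod_eq_single i (fun k _ hk => by simp [hk]) (by simp), if_pos rfl, zpow_one] at e1
    simpa using e1.symm
  simp [hc]

theorem invG2 : invCartB chevG2 [[2, 3], [1, 2]] = true := by decide +kernel

theorem invF4 : invCartB chevF4 [[2, 3, 4, 2], [3, 6, 8, 4], [2, 4, 6, 3], [1, 2, 3, 2]] = true := by
  decide +kernel

theorem invE8 : invCartB chevE8
    [[4, 5, 7, 10, 8, 6, 4, 2], [5, 8, 10, 15, 12, 9, 6, 3], [7, 10, 14, 20, 16, 12, 8, 4],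
      [10, 15, 20, 30, 24, 18, 12, 6], [8, 12, 16, 24, 20, 15, 10, 5], [6, 9, 12, 18, 15, 12, 8, 4],
      [4, 6, 8, 12, 10, 8, 6, 3], [2, 3, 4, 6, 5, 4, 3, 2]] = true := by
  decide +kernel

end CfsgLib.SteinbergPres
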