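import Cfsg.Agent.Lib.SteinbergPres.KernelAll
import Cfsg.Agent.Lib.SteinbergPres.Minuscule

/-!
The centre of Steinberg's group is the group of `p`-th roots of unity when a representation detects it.
-/

set_option autoImplicit false

namespace CfsgLib.SteinbergPres

open Cfsg.Lie CfsgLib.Chevalley

/-- the kernel of the Cartan matrix on tori is `z ↦ (z ^ v_i)`, `z ^ p = 1`, read off at the node `w` -/
def muB (D : ChevalleyDatum) (w p : ℕ) (v : List ℤ) (y : List (List ℤ)) (z : List ℤ) : Bool :=
  decide (w < D.rank) && CfsgLib.Twisted.intEqb (v.getD w 0) 1 &&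
  ((List.range D.rank).all fun k =>
    CfsgLib.Twisted.intEqb
      (((List.range D.rank).map fun j => D.cartan k (D.simple j) * z.getD j 0).sum)
      (if k = w then (p : ℤ) else 0) &&
    (List.range D.rank).all fun i => CfsgLib.Twisted.intEqb
      (((List.range D.rank).map fun j => D.cartan k (D.simple j) * (y.getD i []).getD j 0).sum)
      ((if k = i then 1 else 0) - (if k = w then v.getD i 0 else 0))) &&
  (List.range D.nroots).all fun s =>
    decide ((((List.range D.rank).map fun k => v.getD k 0 * D.cartan k s).sum) % (p : ℤ) = 0)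

/-- the point `0` of the table has weight `δ_{iw}` -/
def weightB (D : ChevalleyDatum) (d w : ℕ) (E : ℕ → SPerm) : Bool :=
  decide (0 < d) && (List.range D.rank).all fun i => (List.range d).all fun a =>
    let R := E (D.simple i)
    let S := E (D.neg (D.simple i))
    CfsgLib.Twisted.intEqb (spAt (spComp d R S) a 0) (if a = 0 ∧ i = w then 1 else 0) &&
      CfsgLib.Twisted.intEqb (spAt (spComp d S R) a 0) 0

variable {D : ChevalleyDatum} {A : Aux} (h : Full D A)

theorem list_range_sum (f : ℕ → ℤ) (n : ℕ) :
    ((List.range n).map f).sum = ∑ j : Fin n, f j := by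
  rw [← List.sum_toFinset _ List.nodup_range, List.toFinset_range, Finset.sum_range]

theorem units_pow_combine {ι : Type*} {G : Type*} [CommGroup G] [Fintype ι] (c : ι → G) (a : ι → ι → ℤ)
    (y : ι → ℤ) :
    ∏ j : ι, (∏ k : ι, c k ^ a k j) ^ y j = ∏ k : ι, c k ^ (∑ j : ι, a k j * y j) := by
  classical
  have hz : ∀ (x : G) (f : ι → ℤ) (s : Finset ι), x ^ (∑ j ∈ s, f j) = ∏ j ∈ s, x ^ f j := by
    intro x f s
    induction s using Finset.induction_on with
    | empty => simp
    | insert a s ha ih => rw [Finset.sum_insert ha, Finset.prod_insert ha, zpow_add, ih]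
  simp only [← Finset.prod_zpow]
  rw [Finset.prod_comm]
  refine Finset.prod_congr rfl fun k _ => ?_
  rw [hz]
  exact Finset.prod_congr rfl fun j _ => (zpow_mul _ _ _).symm

include h in
theorem card_center {coro : ℕ → ℕ → ℤ} {cart : ℕ → ℕ → ℤ} {σ : ℕ → ℕ → ℕ} {η : ℕ → ℕ → ℤ}
    {par : ℕ → ℕ × ℕ} {dep : ℕ → ℕ} {wd : ℕ → ℕ → List ℕ} {g : ℕ → ℕ} {w0 : List ℕ}
    (CT : CTCert D coro cart σ η par dep wd g) (C : StCert D σ η cart coro par dep w0)
    {d w p : ℕ} {E : ℕ → SPerm} {v : List ℤ} {y : List (List ℤ)} {z : List ℤ}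
    (hR : checkRep d D coro E = true) (hW : weightB D d w E = true) (hM : muB D w p v y z = true)
    {K : Type*} [Field K] [Fintype K] :
    Nat.card (Subgroup.center (D.SteinbergGroup K)) = Nat.gcd p (Fintype.card K - 1) := by
  have hE := stEdge_of_ctCert CT K
  have hX := ctRel_repX (K := K) hR CT.ht
  set Y := rootElem D coro σ η (repX hR K) with hYdef
  have hY := CT.stRel_rootElem hX
  have hρ : ∀ x ∈ D.steinbergRels K, FreeGroup.lift (fun q : Fin D.nroots × K => Y q.1 q.2) x = 1 := by
    have hψw : ∀ w : List (ℕ × K), (∀ q ∈ w, q.1 < D.nroots) →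
        FreeGroup.lift (fun q : Fin D.nroots × K => Y q.1 q.2) (D.stWord w) = (w.map fun q => Y q.1 q.2).prod := by
      intro w hw
      rw [map_stWord]
      exact congrArg List.prod (List.map_congr_left fun q hq => lift_stX Y (hw q hq) _)
    rintro x ((⟨r, t, u, hr, rfl⟩ | ⟨r, s, t, u, hr, hs, h1, h2, rfl⟩) | ⟨r, t, u, hr, ht, hu, rfl⟩)
    · simp only [map_mul, map_inv, lift_stX Y hr, mul_inv_eq_one]
      exact hY.add r hr t u
    · rw [map_mul, map_mul, map_mul, map_mul, map_inv, map_inv, map_inv, lift_stX Y hr, lift_stX Y hs,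
        hψw (D.commWord K r s t u) (fun q hq => CT.mem_commWord_lt (K := K) hr hs hq), mul_inv_eq_one]
      exact hY.comm r hr s hs h1 h2 t u
    · have hw : ∀ v : K, ∀ q ∈ D.hWord r v, q.1 < D.nroots := by
        intro v q hq
        simp only [ChevalleyDatum.hWord, ChevalleyDatum.nWord, List.cons_append, List.nil_append, List.mem_cons,
          List.not_mem_nil, or_false] at hq
        rcases hq with rfl | rfl | rfl | rfl | rfl | rfl <;> first | exact hr | exact CT.root.neg_lt hr
      simp only [map_mul, map_inv, ChevalleyDatum.stH, hψw _ (hw _), mul_inv_eq_one]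
      exact hY.hmul r hr t u ht hu
  let ρ := PresentedGroup.toGroup hρ
  simp only [weightB, Bool.and_eq_true, List.all_eq_true, List.mem_range, decide_eq_true_eq] at hW
  obtain ⟨hd, hW⟩ := hW
  simp only [muB, Bool.and_eq_true, List.all_eq_true, List.mem_range, decide_eq_true_eq] at hM
  obtain ⟨⟨⟨hw, hvw⟩, hy⟩, hv⟩ := hM
  have hvw := CfsgLib.Twisted.intEqb_eq hvw
  let o : Fin d := ⟨0, hd⟩
  -- the first column of `h_i(c)`
  have hcol : ∀ i : Fin D.rank, ∀ c : Kˣ, ∀ a : Fin d, (ρ (torCoord h i c) : Matrix (Fin d) (Fin d) K) a o =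
      if a = o then ((c ^ (if (i : ℕ) = w then (1 : ℤ) else 0) : Kˣ) : K) else 0 := by
    intro i c a
    have hp := h.cert.wf.simple_lt i i.isLt
    have hpm := CT.pm_simple i.isLt
    obtain ⟨a', b', hab⟩ := (CT.smallB_iff hp).1 hpm.1.1
    have e0 : ρ (torCoord h i c) = ((D.hWord (D.simple i) (c : K)).map fun q => repX hR K q.1 q.2).prod := by
      show ρ (hSt D K i c) = _
      rw [← stH_eq_hSt, ChevalleyDatum.stH]
      show FreeGroup.lift (fun q : Fin D.nroots × K => Y q.1 q.2) (D.stWord _) = _
      rw [map_stWord]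
      refine congrArg List.prod (List.map_congr_left fun q hq => ?_)
      have hq' : q.1 = D.simple i ∨ q.1 = D.neg (D.simple i) := by
        simp only [ChevalleyDatum.hWord, ChevalleyDatum.nWord, List.cons_append, List.nil_append, List.mem_cons,
          List.not_mem_nil, or_false] at hq
        rcases hq with rfl | rfl | rfl | rfl | rfl | rfl <;> simp
      rcases hq' with e | e <;> rw [e]
      · rw [lift_stX Y hp, hYdef, CT.rootElem_small _ hpm.1.1]
      · rw [lift_stX Y (h.cert.wf.neg_lt _ hp), hYdef, CT.rootElem_small _ hpm.2.1]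
    rw [e0, repH_formula hR (inSub_of CT.ht hab) (c : K) c.ne_zero]
    obtain ⟨w1, w2⟩ := hW i i.isLt a a.isLt
    have w1 := CfsgLib.Twisted.intEqb_eq w1
    have w2 := CfsgLib.Twisted.intEqb_eq w2
    have m1 : (spMat d (E (D.simple i)) K * spMat d (E (D.neg (D.simple i))) K) a o =
        if a = o ∧ (i : ℕ) = w then (1 : K) else 0 := by
      rw [← spMat_comp, spMat, Matrix.of_apply, w1]
      simp only [o, Fin.ext_iff]
      split_ifs <;> simp
    have m2 : (spMat d (E (D.neg (D.simple i))) K * spMat d (E (D.simple i)) K) a o = 0 := by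
      rw [← spMat_comp, spMat, Matrix.of_apply, w2, Int.cast_zero]
    simp only [Matrix.add_apply, Matrix.sub_apply, Matrix.smul_apply, smul_eq_mul, m1, m2, Matrix.one_apply,
      sub_zero, mul_zero, add_zero]
    by_cases ha : a = o <;> by_cases hi : (i : ℕ) = w <;> simp [ha, hi]
  let wF : Fin D.rank := ⟨w, hw⟩
  have hphi : ∀ c : Fin D.rank → Kˣ, (ρ (C.torPhi h hE c) : Matrix (Fin d) (Fin d) K) o o = (c wF : K) := by
    have key : ∀ c : Fin D.rank → Kˣ, ∀ a : Fin d, (ρ (C.torPhi h hE c) : Matrix (Fin d) (Fin d) K) a o =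
        if a = o then (c wF : K) else 0 := by
      intro c
      have hc : c = ∏ i : Fin D.rank, Pi.mulSingle i (c i) := (Finset.univ_prod_mulSingle c).symm
      suffices ∀ S : Finset (Fin D.rank), ∀ a : Fin d,
          (ρ (C.torPhi h hE (∏ i ∈ S, Pi.mulSingle i (c i))) : Matrix (Fin d) (Fin d) K) a o =
            if a = o then (((∏ i ∈ S, c i ^ (if (i : ℕ) = w then (1 : ℤ) else 0) : Kˣ)) : K) else 0 by
        intro a
        have e := this Finset.univ a
        rw [← hc, Finset.prod_eq_single wF (fun i _ hi => by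
          rw [if_neg (fun e => hi (Fin.ext e)), zpow_zero]) (by simp), if_pos (show (wF : ℕ) = w from rfl),
          zpow_one] at e
        exact e
      intro S
      induction S using Finset.induction_on with
      | empty => intro a; simp [Matrix.one_apply]
      | insert i S hi ih =>
        intro a
        rw [Finset.prod_insert hi, Finset.prod_insert hi, map_mul, map_mul, Units.val_mul, Matrix.mul_apply,
          Finset.sum_eq_single o (fun b _ hb => by rw [ih, if_neg hb, mul_zero]) (by simp), ih, if_pos rfl,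
          StCert.torPhi, MonoidHom.noncommPiCoprod_mulSingle, hcol]
        split_ifs <;> simp
    intro c
    rw [key, if_pos rfl]
  -- roots of unity
  have hkey : ∀ c : Fin D.rank → Kˣ, (∀ j : Fin D.rank, chi D (D.simple j) c = 1) →
      c wF ^ p = 1 ∧ ∀ i : Fin D.rank, c i = c wF ^ v.getD i 0 := by
    intro c hchi
    refine ⟨?_, fun i => ?_⟩
    · have e := units_pow_combine c (fun k j => D.cartan k (D.simple j)) (fun j => z.getD j 0)
      have e1 : ∀ k : Fin D.rank, (∑ j : Fin D.rank, D.cartan k (D.simple j) * z.getD j 0) =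
          if (k : ℕ) = w then (p : ℤ) else 0 := fun k => by
        rw [← list_range_sum (fun j => D.cartan k (D.simple j) * z.getD j 0)]
        exact CfsgLib.Twisted.intEqb_eq (hy k k.isLt).1
      simp only [show ∀ j : Fin D.rank, (∏ k : Fin D.rank, c k ^ D.cartan k (D.simple j)) = 1 from hchi,
        one_zpow, Finset.prod_const_one, e1] at e
      rw [Finset.prod_eq_single wF (fun k _ hk => by rw [if_neg (fun x => hk (Fin.ext x)), zpow_zero]) (by simp),
        if_pos (show (wF : ℕ) = w from rfl), zpow_natCast] at e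
      exact e.symm
    · have e := units_pow_combine c (fun k j => D.cartan k (D.simple j)) (fun j => (y.getD i []).getD j 0)
      have e1 : ∀ k : Fin D.rank, (∑ j : Fin D.rank, D.cartan k (D.simple j) * (y.getD i []).getD j 0) =
          (if (k : ℕ) = i then 1 else 0) - (if (k : ℕ) = w then v.getD i 0 else 0) := fun k => by
        rw [← list_range_sum (fun j => D.cartan k (D.simple j) * (y.getD i []).getD j 0)]
        exact CfsgLib.Twisted.intEqb_eq ((hy k k.isLt).2 i i.isLt)
      simp only [show ∀ j : Fin D.rank, (∏ k : Fin D.rank, c k ^ D.cartan k (D.simple j)) = 1 from hchi,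
        one_zpow, Finset.prod_const_one, e1, zpow_sub, Finset.prod_mul_distrib, Finset.prod_inv_distrib] at e
      rw [Finset.prod_eq_single i (fun k _ hk => by rw [if_neg (fun x => hk (Fin.ext x)), zpow_zero]) (by simp),
        Finset.prod_eq_single wF (fun k _ hk => by rw [if_neg (fun x => hk (Fin.ext x)), zpow_zero]) (by simp),
        if_pos rfl, if_pos (show (wF : ℕ) = w from rfl), zpow_one, eq_comm, mul_inv_eq_one] at e
      exact e
  let vpow : Kˣ →* (Fin D.rank → Kˣ) :=
    { toFun := fun x i => x ^ v.getD i 0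
      map_one' := funext fun i => one_zpow _
      map_mul' := fun x x' => funext fun i => mul_zpow _ _ _ }
  let φ : (powMonoidHom p : Kˣ →* Kˣ).ker →* D.SteinbergGroup K :=
    ((C.torPhi h hE).comp vpow).comp (Subgroup.subtype _)
  have hφinj : Function.Injective φ := by
    rw [injective_iff_map_eq_one]
    rintro ⟨x, hx⟩ e
    have e2 : (ρ (C.torPhi h hE (vpow x)) : Matrix (Fin d) (Fin d) K) o o = 1 := by
      rw [show C.torPhi h hE (vpow x) = 1 from e, map_one, Units.val_one, Matrix.one_apply_eq]
    rw [hphi] at e2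
    have : vpow x wF = x := by
      show x ^ v.getD w 0 = x
      rw [hvw, zpow_one]
    rw [this] at e2
    exact Subtype.ext (Units.ext e2)
  have hrange : φ.range = Subgroup.center (D.SteinbergGroup K) := by
    apply le_antisymm
    · rintro _ ⟨⟨x, hx⟩, rfl⟩
      refine C.ker_le_center h hE ?_
      show theta h (C.torPhi h hE (vpow x)) = 1
      rw [C.theta_torPhi]
      refine Units.ext ?_
      rw [coe_torusHom, Units.val_one, ← Matrix.diagonal_one]
      congr 1
      funext a
      rcases a with j | s
      · rfl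
      · show ((chi D s (vpow x) : Kˣ) : K) = 1
        have hx' : x ^ (p : ℤ) = 1 := by rw [zpow_natCast]; exact hx
        have : chi D s (vpow x) = 1 := by
          show ∏ k : Fin D.rank, (x ^ v.getD k 0) ^ D.cartan k s = 1
          obtain ⟨m, hm⟩ := Int.dvd_of_emod_eq_zero (hv s s.isLt)
          rw [list_range_sum (fun k => v.getD k 0 * D.cartan k s)] at hm
          have e : ∏ k : Fin D.rank, (x ^ v.getD k 0) ^ D.cartan k s =
              x ^ (∑ k : Fin D.rank, v.getD k 0 * D.cartan k s) := by
            simp only [← zpow_mul]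
            classical
            induction (Finset.univ : Finset (Fin D.rank)) using Finset.induction_on with
            | empty => simp
            | insert a S ha ih => rw [Finset.prod_insert ha, Finset.sum_insert ha, zpow_add, ih]
          rw [e, hm, zpow_mul, hx', one_zpow]
        rw [this, Units.val_one]
    · intro g hg
      have hg1 := C.center_le_ker h hE hg
      obtain ⟨c, rfl⟩ := C.exists_torPhi h hE (C.ker_le_tor h hE hg1)
      rw [C.theta_torPhi] at hg1
      have hchi : ∀ j : Fin D.rank, chi D (D.simple j) c = 1 := by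
        intro j
        have hp := h.cert.wf.simple_lt j j.isLt
        have := congrArg (fun x : GL D.Idx K =>
          (x : Matrix D.Idx D.Idx K) (Sum.inr ⟨_, hp⟩) (Sum.inr ⟨_, hp⟩)) hg1
        simp only [coe_torusHom, Matrix.diagonal_apply_eq, Units.val_one, Matrix.one_apply_eq, Sum.elim_inr] at this
        exact Units.ext this
      obtain ⟨h1, h2⟩ := hkey c hchi
      exact ⟨⟨c wF, h1⟩, congrArg (C.torPhi h hE) (funext fun i => (h2 i).symm)⟩
  rw [← hrange, ← Nat.card_congr (MonoidHom.ofInjective hφinj).toEquiv, IsCyclic.card_powMonoidHom_ker,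
    Nat.card_units, Nat.card_eq_fintype_card, Nat.gcd_comm]

end CfsgLib.SteinbergPres
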